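import Mathlib

/-!
# Data of a coset enumeration
-/

set_option autoImplicit false

namespace Cfsg.Agent.Lib.KnownSimple.MultM.U34G

/-- Generated data. -/
def par1 : ℕ := 0xbaa865544321100
/-- Generated data. -/
def gix1 : ℕ := 0x28198148
/-- Generated data. -/
def dp1 : ℕ := 0x1b6b6491b488
/-- Generated data. -/
def fa1 : ℕ := 0xedcbba987654321eebddacca869958577464323121000
/-- Generated data. -/
def fl1 : ℕ := 0x28466052492905294a06624
/-- Generated data. -/
def fb1 : ℕ := 0xbaac86554432110eeedddcbcba9998877766543322100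
/-- Generated data. -/
def fk1 : ℕ := 0x442323434223324860860b5000860a0860b0009070011
/-- Generated data. -/
def po1 : ℕ := 0x6ad3a33e6cb931e2c382fdebb72bd2a5364487ad1a3468bd52a3e7cd152a2850a14142800000000
/-- Generated data. -/
def pc1 : ℕ := 0x111111111111111550550b9000550b0550b0005050000
/-- Generated data. -/
def pa1 : ℕ := 0x36c2ab289a071649038a184dacbeddf6a1fa77c26567c70aefab1aa65523893d3567aea9923862d176981d7dc86040d46171034a1c918b3517563893d75935525d238918b34a1c93d32840c52c6101147
/-- Generated data. -/
def can1 : ℕ := 0xedcba9876543210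
/-- Generated data. -/
def tb1_0 : ℕ := 0xeda8c9b74365120
/-- Generated data. -/
def fi1_0 : ℕ := 0x1c66aa1545432388921f0c0
/-- Generated data. -/
def tb1_1 : ℕ := 0xedbc6957a821430
/-- Generated data. -/
def fi1_1 : ℕ := 0x1d696a674a53533a1807141
/-- Generated data. -/
def tb1_2 : ℕ := 0xbaced5846973201
/-- Generated data. -/
def fi1_2 : ℕ := 0x2cad76d898f90a40b184782

end Cfsg.Agent.Lib.KnownSimple.MultM.U34G
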