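import Cfsg.Agent.Lib.KnownSimple.MultM.U34G.ValD0
import Cfsg.Agent.Lib.KnownSimple.MultM.U34G.Rel
import Cfsg.Agent.Lib.KnownSimple.MultC.ValMain

/-!
# The table of values
-/

set_option autoImplicit false

namespace Cfsg.Agent.Lib.KnownSimple.MultM.U34G

open Cfsg Cfsg.Spor Cfsg.Agent.Lib.Compute Cfsg.Agent.Lib.KnownSimple.PE Cfsg.Agent.Lib.KnownSimple.Leech
open Cfsg.Agent.Lib.KnownSimple Cfsg.Agent.Lib.KnownSimple.AutRigid Cfsg.Agent.Lib.KnownSimple.Pres
open Cfsg.Agent.Lib.KnownSimple.MultC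


set_option maxRecDepth 1000000 in
/-- The table of values. -/
def tv : ZI := (.node 0 1 0x0 0x0 (.node 0 2 0x0 0x0 (.node 0 4 0x0 0x0 (.node 0 1600 0x1 0x0 tv0 tv1) (.node 2016 28 0x10000000000000000000000000000000000000000 0x1 tv2 tv3)) (.node 0 5 0x0 0x0 (.node 2 1 0x1000000000000000000000000 0x0 tv4 tv5) (.node 0 10 0x0 0x0 tv6 tv7))) (.node 0 3 0x0 0x0 (.node 1 0 0x10000000000000000 0x0 (.node 0 7 0x0 0x0 tv8 tv9) (.node 0 9 0x0 0x0 tv10 tv11)) (.node 0 6 0x0 0x0 (.node 0 8 0x0 0x0 tv12 tv13) (.node 3 2 0x100000000000000000000000000000000 0x0 tv14 tv15))))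
/-- The edges of the parameters. -/
def peL : List ℕ := [7,150]
/-- The mask. -/
def mskM : ℕ := 0xffff0000ffff0000ffff0000ffff0000ffff0000ffff0000ffff0000ffff0000ffff0000ffff0000ffff0000ffff0000ffff0000ffff0000ffff0000ffff0000ffff0000ffff0000ffff0000ffff0000ffff0000ffff0000ffff0000
/-- A power of the base. -/
def cKK : ℕ := 0x10000000000000000000000000000000000000000000000000000000000000000000000000000000000000000000000000000000000000000000000000000000000000000000000000000000000000000000000000000000000000000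
/-- The test of an edge. -/
noncomputable abbrev fe : ℕ → Bool := chkEdgeG 4294967296 mskM cKK τ d n RL 25 2 21 (lookP parT) (lookP genT) (lg 0 peL) tv

end Cfsg.Agent.Lib.KnownSimple.MultM.U34G
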